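import Cfsg.Agent.KZ.Lie.McSc

/-!
# S3541, box ZC for `E₆`, `r = 3`: a Sylow subgroup in the normaliser of a torus on which `F` is a scalar (helper69)

* `exists_frame`.
-/

set_option autoImplicit false
set_option linter.unusedSectionVars false

namespace Cfsg.Agent.TH.Ab.ZE

open Cfsg Cfsg.Agent.DL Cfsg.Agent.DL.PP Cfsg.Agent.DL.Uni Cfsg.Agent.DL.Asm Cfsg.Agent.Nodes.Reps Matrix
  Cfsg.Agent.KZ.Lie Cfsg.Agent.Tits.Roots

variable {p : ℕ} [Fact p.Prime] {k : Type} [Field k] [CharP k p] {Y : Type} [Group Y] {N : Type} [Fintype N]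
  [DecidableEq N] {ρ : Y →* GL N k} {F : MulAut Y} {G : Subgroup Y} [IsAlgClosed k] {D : Datum p ρ F G} {w₀ : D.W} {q : ℤ}

theorem exists_syl (h : Sc D w₀ q) (hp : p ≠ 3) {A : Subgroup (GF F G)} (hA : IsPGroup 3 A) :
    ∃ (z : Y) (Q : Sylow 3 (GF F G)), z ∈ G ∧ D.Rp w₀ (z⁻¹ * F z) ∧ A ≤ Q ∧
      (Q : Subgroup (GF F G)) ≤ Nz F G (cj z D.T) := by
  have := finite_GF D
  have : Fact (Nat.Prime 3) := ⟨Nat.prime_three⟩
  obtain ⟨P, hP⟩ := (h.cardC hp).exists_sylow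
  obtain ⟨Q, hQ⟩ := hA.exists_le_sylow
  obtain ⟨g, rfl⟩ := MulAction.exists_smul_eq (GF F G) P Q
  refine ⟨g * yw D w₀, _, mul_mem g.2.1 (yw_mem D w₀), ?_, hQ, ?_⟩
  · convert yw_rp D w₀ using 1
    rw [map_mul, show F g = g from g.2.2]
    group
  · rintro _ ⟨u, hu, rfl⟩
    refine mem_Nz.2 ?_
    show cj ((g : Y) * u * (g : Y)⁻¹) _ = _
    rw [cj_mul (g : Y), ← cj_mul, inv_mul_cancel_right, cj_mul]
    exact congrArg _ (mem_Nz.1 (hP hu))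

/-- **The frame.** -/
theorem exists_frame (h : Sc D w₀ q) (hp : p ≠ 3) {T : Type} [Group T] [Finite T] (ι : T →* Y)
    (hι : Function.Injective ι) (h1 : ∀ x, ι x ∈ GF F G) (h2 : ∀ y ∈ GF F G, ∀ x, ∃ x', ι x' = y * ι x * y⁻¹)
    (h3 : ∀ y ∈ GF F G, y ^ 3 ∈ ι.range) {P : Subgroup T} (hP : IsPGroup 3 P) (hi : ¬ 3 ∣ P.index) :
    ∃ (z : Y) (f : P →* D.W), (∀ x : P, D.Rp (f x) (z⁻¹ * ι x * z)) ∧ ¬ 3 ∣ f.range.index ∧
      ∀ ζ : kˣ, IsPrimitiveRoot ζ 3 → ∀ a, D.Rt a → ∃ t : P, z⁻¹ * ι t * z = D.τ (coch (D.cor a) ζ) := by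
  have := finite_GF D
  have : Fact (Nat.Prime 3) := ⟨Nat.prime_three⟩
  let ι' : T →* GF F G := ι.codRestrict _ h1
  have hι' : Function.Injective ι' := fun a b e => hι (congrArg Subtype.val e)
  obtain ⟨z, Q, hz, hw, hQ, hN⟩ := exists_syl h hp (hP.map ι')
  have hPQ : P ≤ (Q : Subgroup (GF F G)).comap ι' := Subgroup.map_le_iff_le_comap.1 hQ
  have hQP : (Q : Subgroup (GF F G)).comap ι' = P := (hP.toSylow hi).3 (Q.2.comap_of_injective ι' hι') hPQ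
  have hrep : ∀ v : D.W, ∃ n : Nz F G (cj z D.T), wN hz n = v := fun v => by
    have h4 : v ∈ (wN (D := D) hz).range := by
      rw [range_wN hz hw, h.cw_top]
      exact Subgroup.mem_top _
    exact h4
  let N₀ : Subgroup T := (Nz F G (cj z D.T)).comap ι'
  let f₀ : N₀ →* D.W := (wN hz).comp ((ι'.comp N₀.subtype).codRestrict _ fun x => x.2)
  have hPN : P ≤ N₀ := fun x hx => hN (hPQ hx)
  have hs : Function.Surjective f₀ := by
    rw [← MonoidHom.range_eq_top, eq_top_iff, ← D.cs.subgroup_closure_range_simple, Subgroup.closure_le]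
    rintro _ ⟨i, rfl⟩
    obtain ⟨n, hn⟩ := hrep (D.cs.simple i)
    obtain ⟨x, hx⟩ := h3 _ n.1.2
    have e : ι' x = (n ^ 3 : Nz F G (cj z D.T)) := Subtype.ext hx
    refine ⟨⟨x, show ι' x ∈ _ from e ▸ (n ^ 3).2⟩, ?_⟩
    have e2 : f₀ ⟨x, show ι' x ∈ _ from e ▸ (n ^ 3).2⟩ = wN hz (n ^ 3) := congrArg (wN hz) (Subtype.ext e)
    rw [e2, map_pow, hn, pow_succ, pow_two, D.cs.simple_mul_simple_self, one_mul]
  refine ⟨z, f₀.comp (Subgroup.inclusion hPN), fun x => rp_wN hz _, fun h4 => hi ?_, fun ζ hζ a ha => ?_⟩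
  · rw [MonoidHom.range_comp, Subgroup.inclusion_range] at h4
    exact (h4.trans (Subgroup.index_map_dvd _ hs)).trans (Subgroup.relIndex_dvd_index_of_le hPN)
  · obtain ⟨⟨c1, c2⟩, c3⟩ := coch_mem hp hz hw (j := 1) (ζ := ζ) (by rwa [pow_one]) (x := D.cor a)
      fun i => by rw [pow_one]; exact h.dvd_mulVec _ i
    obtain ⟨n, hn⟩ := hrep (D.rf a)
    have c4 := D.conj_τ_rf ha (hn ▸ rp_wN hz n) (coch (D.cor a) ζ)
    rw [chr_coch, D.pair_cor ha, Nodes.Coroot.cpr_self _ _ ha] at c4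
    obtain ⟨c, hc⟩ : ∃ c, c = z * D.τ (coch (D.cor a) ζ) * z⁻¹ := ⟨_, rfl⟩
    obtain ⟨m, hm⟩ : ∃ m : Y, m = (n : GF F G) := ⟨_, rfl⟩
    rw [← hc] at c1 c2 c3
    rw [← hm] at c4
    have c5 : m * c * m⁻¹ = c⁻¹ := by
      have c6 : coch (D.cor a) ζ * (coch (D.cor a) (ζ ^ (2 : ℤ)))⁻¹ = (coch (D.cor a) ζ)⁻¹ := by
        rw [map_zpow, zpow_two, _root_.mul_inv_rev, mul_inv_cancel_left]
      rw [c6, map_inv] at c4
      calc m * c * m⁻¹ = z * (z⁻¹ * m * z * D.τ (coch (D.cor a) ζ) * (z⁻¹ * m * z)⁻¹) * z⁻¹ := by rw [hc]; group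
        _ = c⁻¹ := by rw [c4, hc]; group
    have c6 : m * c⁻¹ * m⁻¹ = c := by rw [← conj_inv, c5, inv_inv]
    obtain ⟨x, hx⟩ := h3 m (hm ▸ n.1.2)
    obtain ⟨x', hx'⟩ := h2 c c2 x
    have c7 : c ^ 3 = 1 := by rwa [pow_one] at c3
    have c8 : ι (x * x'⁻¹) = c := by
      rw [map_mul, map_inv, hx', hx]
      calc m ^ 3 * (c * m ^ 3 * c⁻¹)⁻¹ = m * (m * (m * c * m⁻¹) * m⁻¹) * m⁻¹ * c⁻¹ := by
            rw [pow_three']; group
        _ = c * (c ^ 3)⁻¹ := by rw [c5, c6, c5]; group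
        _ = c := by rw [c7, inv_one, mul_one]
    have c9 : (⟨c, c2⟩ : GF F G) ∈ (Q : Subgroup (GF F G)) :=
      mem_sylow (KZ.Lie.mem_tori hz hw) Q hN c1 ⟨1, Subtype.ext c3⟩
    have c10 : x * x'⁻¹ ∈ P := by
      rw [← hQP]
      show ι' (x * x'⁻¹) ∈ (Q : Subgroup (GF F G))
      rwa [show ι' (x * x'⁻¹) = ⟨c, c2⟩ from Subtype.ext c8]
    exact ⟨⟨_, c10⟩, by rw [c8, hc]; group⟩

end Cfsg.Agent.TH.Ab.ZE
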