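import Cfsg.Agent.TH.Ex.Ab.ZEA
import Cfsg.Agent.TH.Ex.Ab.ZEF
import Cfsg.Agent.TH.Ex.Ab.Defs

/-!
# S3541, box ZC for `E₆` and `²E₆`, `r = 3` (helper69)

* `tp_fix` : if `3 ∣ ε q + 1` every commuting pair of fixed elements of order `3` is toral;
* `zc6` : the half `D = chevE6`, `r = 3` of `BoxZC`.
-/

set_option autoImplicit false
set_option linter.unusedSectionVars false

namespace Cfsg.Agent.TH.Ab.ZE

open CoxeterSystem Cfsg Cfsg.Lie Cfsg.Lie.ChevalleyDatum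
open Cfsg.Agent.ChevalleyStructure Cfsg.Agent.ChevalleyStructure.Elts Cfsg.Agent.ChevalleyStructure.CoxeterGeom
  Cfsg.Agent.ChevalleyStructure.CoxeterGeomTypes
open Cfsg.Agent.Tits.Roots Cfsg.Agent.Tits.Core Cfsg.Agent.Nodes Cfsg.Agent.Nodes.Reps Cfsg.Agent.Nodes.BNOf
  Cfsg.Agent.Nodes.RGDChev Cfsg.Agent.Nodes.Bruhat Cfsg.Agent.Nodes.Coroot
open Cfsg.Agent.KFacts.RgdField Cfsg.Agent.KFacts.RgdChevCoord
open Cfsg.Agent.BpExc Cfsg.Agent.BpExc.TorCent Cfsg.Agent.BpExc.TorChev Cfsg.Agent.BpExc.Tow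
  Cfsg.Agent.BpExc.TowChev Cfsg.Agent.BpExc.Fr Cfsg.Agent.BpExc.LangFr
open Cfsg.Agent.H469.Exc Cfsg.Agent.H316.U6 Cfsg.Agent.H129.TorusChar Cfsg.Agent.DS.Ex Cfsg.Agent.H786.FC
open Cfsg.Agent.DS.Nt
open Cfsg.Agent.SB.Exc (XF)

variable {hp : IsType chevE6 6 CoxeterMatrix.E₆} {p : ℕ} [Fact p.Prime] [Finite W6]
  {σ : MulAut (YY chevE6 p)} {e : ℕ} {g : (Fin 6 → ℤ) ≃+ (Fin 6 → ℤ)} {v : W6} {ε : ℤ}

/-- commuting fixed elements of order three -/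
theorem tp_fix (h3 : 3 ≠ p) (he : 0 < e) (hσ : IsFrob p e σ)
    (Φ : Fr cs6 hp.isCartan (TT chevE6 (KK p)) (XX chevE6 6 (KK p)) σ g) (hε : ε * ε = 1)
    (hg : ∀ a, g a = ε • rep cs6 hp.isCartan v a) (hq : (3 : ℤ) ∣ ε * p ^ e + 1) {x y : YY chevE6 p}
    (hσx : σ x = x) (hσy : σ y = y) (hx3 : x ^ 3 = 1) (hy3 : y ^ 3 = 1) (hc : y * x = x * y) : Tp p x y := by
  obtain ⟨c, hx⟩ := exists_conj_T hp Nat.prime_three h3 (n := 1) (x := x) hx3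
  obtain ⟨z, -, ⟨w : W6, hw⟩, -, h1⟩ := SB.Exc.Max.exists_conj_le_T (DL.Ex.chevFr hp (locFin p) he hσ Φ) (Z := {x})
    (fun a ha => by rw [ha, hσx]; rfl) (x := c⁻¹) (Subgroup.mem_top _) (fun a ha => by rw [ha, inv_inv]; exact hx)
  have h2 : z⁻¹ * x * z⁻¹⁻¹ = c * x * c⁻¹ := by rw [inv_inv, h1 x rfl, inv_inv]
  have h4 : RP hp p w (z⁻¹ * σ z) := (DS.Nt.rp_congr (TLe hp p) _ _).2 hw
  have h5 : ∀ a, σ a = a → (MulAut.conj (z⁻¹ * σ z) * σ) (z⁻¹ * a * z⁻¹⁻¹) = z⁻¹ * a * z⁻¹⁻¹ := fun a ha => by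
    rw [MulAut.mul_apply, MulAut.conj_apply, inv_inv, map_mul, map_mul, map_inv, ha]
    group
  refine Tp.of_conj (c := z⁻¹) (tp_of_inv (hp := hp) h3 (hσ.conj_mul _) (h4.fr.mul Φ) (v := w * v) hε (fun a => ?_) hq
    (by rw [h2]; exact hx) (h5 x hσx) (h5 y hσy) ?_ ?_ (conj_comm hc))
  · rw [AddEquiv.trans_apply, repAut_apply, hg, map_zsmul, rep_mul_apply]
  · rw [conj_pow, hx3, mul_one, mul_inv_cancel]
  · rw [conj_pow, hy3, mul_one, mul_inv_cancel]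

/-- the scalar case -/
theorem sc (he : 0 < e) (hσ : IsFrob p e σ) (Φ : Fr cs6 hp.isCartan (TT chevE6 (KK p)) (XX chevE6 6 (KK p)) σ g)
    (hε : ε * ε = 1) (hg : ∀ a, g a = ε • rep cs6 hp.isCartan v a) (hq : (3 : ℤ) ∣ ε * p ^ e - 1) :
    KZ.Lie.Sc (DL.Ex.chevFr hp (locFin p) he hσ Φ) v⁻¹ (ε * p ^ e) := by
  let D₀ := DL.Ex.chevFr hp (locFin p) he hσ Φ
  obtain ⟨A, hA⟩ : ∃ A : Matrix (Fin 6) (Fin 6) ℤ, A = D₀.Wm v := ⟨_, rfl⟩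
  obtain ⟨B, hB⟩ : ∃ B : Matrix (Fin 6) (Fin 6) ℤ, B = D₀.Wm (v⁻¹ : W6) := ⟨_, rfl⟩
  have h0 : B * A = 1 := by
    rw [hA, hB]
    exact (D₀.Wm_mul (v⁻¹ : W6) v).symm.trans ((congrArg D₀.Wm (inv_mul_cancel v)).trans D₀.Wm_one)
  have h1 : (Matrix.of fun i => ((p : ℤ) ^ e) • g.symm (sr i)) = (ε * (p : ℤ) ^ e) • A := by
    funext i
    have h2 : rep cs6 hp.isCartan v⁻¹ (sr i) = Matrix.vecMul (sr i) A := by
      rw [hA]
      exact D₀.wt_act' v (sr i)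
    have h4 : g.symm (sr i) = ε • rep cs6 hp.isCartan v⁻¹ (sr i) := by
      rw [AddEquiv.symm_apply_eq, hg, map_zsmul, rep_apply_inv, smul_smul, hε, one_smul]
    show ((p : ℤ) ^ e) • g.symm (sr i) = (ε * (p : ℤ) ^ e) • A i
    rw [h4, h2, smul_smul, mul_comm, sr, Matrix.single_one_vecMul]
    rfl
  have h2 : B * (Matrix.of fun i => ((p : ℤ) ^ e) • g.symm (sr i)) = (ε * (p : ℤ) ^ e) • 1 := by
    rw [h1, Matrix.mul_smul, h0]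
  rw [hB] at h2
  exact ⟨h2, hq⟩

omit [Finite W6] in
/-- **The half `E₆`, `r = 3` of the box ZC.** -/
theorem zc6 {l : ℕ} {M : CoxeterMatrix (Fin l)} (hp : IsType chevE6 l M) {q : ℕ} {G : Type} [Group G] [Finite G]
    {T : Subgroup G} (h3 : 3 ≠ p) (F : XF hp p q T) (P R : Subgroup ↥T) (hP : IsPGroup 3 P) (hi : ¬ 3 ∣ P.index)
    (hRP : R ≤ P) (hn : ∀ a ∈ P, ∀ x ∈ R, a * x * a⁻¹ ∈ R) (h0 : R ≠ ⊥) (hc : ∀ x ∈ R, ∀ y ∈ R, x * y = y * x)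
    (hpow : ∀ x ∈ R, x ^ 3 = 1) : ∃ x ∈ R, x ≠ 1 ∧ ∀ y ∈ R, Tp p (F.L.ι y) (F.L.ι x) := by
  obtain rfl : l = 6 := (typ_l hp).2.1 rfl
  obtain rfl := eqE6 hp
  have := finW hp
  obtain ⟨v, ε, hε, hg⟩ : ∃ (v : W6) (ε : ℤ), (ε = 1 ∨ ε = -1) ∧ ∀ a, F.m.g a = ε • rep cs6 hp.isCartan v a := by
    obtain ⟨w, h | ⟨-, h⟩⟩ := F.gW
    · exact ⟨w, 1, Or.inl rfl, fun a => by rw [h, one_smul]⟩
    · exact ⟨w, -1, Or.inr rfl, fun a => by rw [h, neg_one_smul]⟩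
  have hε2 : ε * ε = 1 := by rcases hε with rfl | rfl <;> rfl
  have hq : (3 : ℤ) ∣ ε * p ^ F.m.e - 1 ∨ (3 : ℤ) ∣ ε * p ^ F.m.e + 1 := by
    have h1 : ¬ (3 : ℤ) ∣ (p : ℤ) ^ F.m.e := fun h => h3 ((Nat.prime_dvd_prime_iff_eq Nat.prime_three Fact.out).1
      (Nat.prime_three.dvd_of_dvd_pow (n := F.m.e) (by exact_mod_cast h)))
    rcases hε with rfl | rfl <;> omega
  rw [F.hι]
  rcases hq with hq | hq
  · obtain ⟨z, f, a1, a2, a3⟩ := exists_frame (sc F.m.he F.m.frob F.m.fr hε2 hg hq) h3.symm F.m.ι F.m.inj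
      (fun x => ⟨Subgroup.mem_top _, F.m.fix x⟩) (fun y hy => F.m.norm y hy.2) (fun y hy => by
        have h1 := F.m.pow_dd y hy.2
        rcases F.ext.dd with h | ⟨-, h⟩ | ⟨h, -⟩
        · rw [h, pow_one] at h1
          exact pow_mem h1 3
        · rwa [h] at h1
        · exact absurd (congrArg ChevalleyDatum.nroots h) (by decide +kernel)) hP hi
    obtain ⟨ζ, hζ⟩ := exists_prim (p := p) Nat.prime_three h3
    obtain ⟨x, b1, b2, b3⟩ := core (hp := hp) h3 hP hζ (R := R.subgroupOf P)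
      ⟨fun x hx a => hn a a.2 x hx⟩ (fun h => h0 ((Subgroup.subgroupOf_eq_bot.1 h).eq_bot_of_le hRP))
      (fun x hx y hy => Subtype.ext (hc x hx y hy)) (fun x hx => Subtype.ext (hpow x hx))
      (j := (MulAut.conj z⁻¹).toMonoidHom.comp (F.m.ι.comp P.subtype))
      ((MulAut.conj z⁻¹).injective.comp (F.m.inj.comp P.subtype_injective)) (f := f)
      (fun x => (DS.Nt.rp_congr (TLe hp p) _ _).2 (by
        show Rp _ _ _ (z⁻¹ * F.m.ι x * z⁻¹⁻¹)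
        rw [inv_inv]
        exact a1 x)) a2 fun a ha => by
      obtain ⟨t, ht⟩ := a3 _ (hζ.isUnit_unit (by decide)) a ha
      obtain ⟨c, c1⟩ : ∃ c : Fin 6 → ℤ, c = (DL.Ex.chevFr hp (locFin p) F.m.he F.m.frob F.m.fr).cor a := ⟨_, rfl⟩
      have e : ((MulAut.conj z⁻¹).toMonoidHom.comp (F.m.ι.comp P.subtype)) t =
          DL.Ex.tau hp (DL.coch c (hζ.isUnit (by decide)).unit) := by
        show z⁻¹ * F.m.ι t * z⁻¹⁻¹ = _
        rw [inv_inv, c1]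
        exact ht
      refine ⟨t, by rw [e]; exact DL.Ex.tau_mem hp _, fun r => ?_⟩
      rw [e, DL.Ex.cX_tau, DL.Ex.chr_coch, Units.val_zpow_eq_zpow_val, IsUnit.unit_spec, c1]
      exact congrArg _ ((DL.Ex.chevFr hp (locFin p) F.m.he F.m.frob F.m.fr).pair_cor ha r)
    exact ⟨x, b1, fun h => b2 (Subtype.ext h), fun y hy => (b3 ⟨y, hRP hy⟩ hy).of_conj⟩
  · obtain ⟨x, hx⟩ := Subgroup.ne_bot_iff_exists_ne_one.1 h0
    refine ⟨x, x.2, fun h => hx (Subtype.ext h), fun y hy => tp_fix (hp := hp) h3 F.m.he F.m.frob F.m.fr hε2 hg hq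
      (F.m.fix y) (F.m.fix x) ?_ ?_ ?_⟩
    · rw [← map_pow, hpow y hy, map_one]
    · rw [← map_pow, hpow x x.2, map_one]
    · rw [← map_mul, ← map_mul, hc x x.2 y hy]

end Cfsg.Agent.TH.Ab.ZE
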