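import Cfsg.Agent.TH.Ex.Ab.ZEW
import Cfsg.Agent.DS.Nt.Kac
import Cfsg.Agent.DL.Ex.Split
import Cfsg.Agent.DL.Dat.Sub
import Cfsg.Agent.H777.PGrp
import Cfsg.Agent.SB.Exc.Tor.Set

/-!
# S3541, box ZC for `E₆`, `r = 3`: the statements in the algebraic group (helper69)

* `rf_DZ`, `mem_Kf_of_DZ` : the Weyl group of the connected centraliser;
* `core` : a `3`-group which normalises the torus, contains the coroot elements of order `3` and covers a Sylow subgroup of `W`;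
* `rho_ne_one` : the cocycle detects the component group; `tp_of_inv` : the Frobenius map inverts the component group.
-/

set_option autoImplicit false
set_option linter.unusedSectionVars false

namespace Cfsg.Agent.TH.Ab.ZE

open CoxeterSystem Cfsg Cfsg.Lie Cfsg.Lie.ChevalleyDatum
open Cfsg.Agent.ChevalleyStructure Cfsg.Agent.ChevalleyStructure.Elts Cfsg.Agent.ChevalleyStructure.CoxeterGeom
  Cfsg.Agent.ChevalleyStructure.CoxeterGeomTypes
open Cfsg.Agent.Tits.Roots Cfsg.Agent.Tits.Core Cfsg.Agent.Nodes Cfsg.Agent.Nodes.Reps Cfsg.Agent.Nodes.BNOf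
  Cfsg.Agent.Nodes.RGDChev Cfsg.Agent.Nodes.Bruhat Cfsg.Agent.Nodes.Coroot
open Cfsg.Agent.KFacts.RgdField Cfsg.Agent.KFacts.RgdChevCoord
open Cfsg.Agent.BpExc Cfsg.Agent.BpExc.TorCent Cfsg.Agent.BpExc.TorChev Cfsg.Agent.BpExc.Tow
  Cfsg.Agent.BpExc.TowChev Cfsg.Agent.BpExc.Fr Cfsg.Agent.BpExc.LangFr
open Cfsg.Agent.H469.Exc Cfsg.Agent.H795.SetCent Cfsg.Agent.H129.TorusChar Cfsg.Agent.DS.Ex
open Cfsg.Agent.H185.EE Cfsg.Agent.H931.KC Cfsg.Agent.DS.Nt Cfsg.Agent.SB.Exc.W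

/-- the Weyl group -/
abbrev W6 : Type := CoxeterMatrix.E₆.Group

/-- the Coxeter system -/
noncomputable abbrev cs6 : CoxeterSystem CoxeterMatrix.E₆ W6 := CoxeterMatrix.E₆.toCoxeterSystem

variable {hp : IsType chevE6 6 CoxeterMatrix.E₆} {p : ℕ} [Fact p.Prime] [Finite W6]

theorem typ6 : Typ chevE6 := Or.inr (Or.inl rfl)

/-- reflections in the roots trivial on `t` are represented in the connected centraliser -/
theorem rf_DZ {t : YY chevE6 p} (ht : t ∈ TT chevE6 (KK p)) {u : W6} {a : Fin 6 → ℤ} (ha : IsRoot cs6 hp.isCartan a)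
    (h : IsRf hp cs6 u a) (h1 : cX hp t a = 1) : ∃ k ∈ DZ hp p {t}, RP hp p u k := by
  let D₀ := DL.Ex.chev hp (locFin p) (p := p) one_pos
  obtain ⟨m, hm, h2⟩ := D₀.exists_rp_rf ha
  have hZ : ({t} : Set (YY chevE6 p)) ⊆ TT chevE6 (KK p) := Set.singleton_subset_iff.2 ht
  have h3 : ∀ b, IsRoot cs6 hp.isCartan b → cX hp t b = 1 → XX chevE6 6 (KK p) b ≤ DZ hp p {t} := fun b hb e =>
    (X_le_Mz ((mem_Ps hZ).2 ⟨hb, fun s hs => by rw [hs, e]⟩)).trans Mz_le_DZ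
  have h4 : D₀.T ⊔ (D₀.X a ⊔ D₀.X (-a)) ≤ DZ hp p {t} :=
    sup_le T_le_DZ (sup_le (h3 a ha h1) (h3 _ ha.neg (by rw [(isMC_cX hp ht).neg, h1, inv_one])))
  refine ⟨m, h4 hm, ?_⟩
  rw [D₀.eq_rf ha h]
  exact (DS.Nt.rp_congr (TLe hp p) _ _).2 h2

/-- the elements of `W` represented in the connected centraliser fix the lift of the character -/
theorem mem_Kf_of_DZ {t k : YY chevE6 p} (ht : t ∈ TT chevE6 (KK p)) {u : W6} (hk : RP hp p u k)
    (h : k ∈ DZ hp p {t}) : u ∈ Kf hp cs6 (isMC_cX hp ht) := by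
  let D₀ := DL.Ex.chev hp (locFin p) (p := p) one_pos
  have hZ : ({t} : Set (YY chevE6 p)) ⊆ D₀.T := Set.singleton_subset_iff.2 ht
  have hχ : ∀ a, D₀.χ a t = cX hp t a := fun a => by
    obtain ⟨c, rfl⟩ := (DL.Ex.mem_TT_iff hp t).1 ht
    exact (D₀.χ_τ a c).trans (DL.Ex.cX_tau hp c a).symm
  have hS : D₀.Sz {t} = Ps hp p {t} := by
    ext a
    refine Iff.trans ?_ (mem_Ps (hp := hp) (a := a) (Set.singleton_subset_iff.2 ht)).symm
    refine and_congr_right fun _ => forall_congr' fun z => forall_congr' fun hz => ?_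
    rw [hz, hχ]
  have hC : D₀.cen {t} = DZ hp p {t} := by
    have h0 : D₀.cen {t} = D₀.T ⊔ D₀.S (Ps hp p {t}) := congrArg (fun A => D₀.T ⊔ D₀.S A) hS
    exact h0.trans (sup_comm _ _)
  have hF : ∀ a ∈ D₀.Sz {t}, D₀.g a ∈ D₀.Sz {t} := fun a ha => ha
  have h1 : D₀.Rp u k := hk.toT
  have h2 : k ∈ (D₀.sub hZ hF rfl).NN := by
    rw [D₀.sub_NN hZ hF rfl]
    exact ⟨⟨u, h1⟩, hC ▸ h⟩
  obtain ⟨v, hv⟩ := h2
  have h3 : u ∈ (D₀.subW {t}).range := ⟨v, D₀.rp_unique (D₀.rp_of_sub hZ hF rfl hv) h1⟩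
  rw [D₀.range_subW] at h3
  refine (Subgroup.closure_le (K := Kf hp cs6 (isMC_cX hp ht))).2 ?_ h3
  rintro _ ⟨a, ha, rfl⟩
  exact IsRf.mem_Kf _ (D₀.act_rf ha.1) ha.1 ((hχ a).symm.trans (ha.2 t rfl))

theorem dvd_of_zpow {K : Type} [Field K] {ζ : K} (hζ : IsPrimitiveRoot ζ 3) {a b : ℤ} (h : ζ ^ a = ζ ^ b) :
    (3 : ℤ) ∣ a - b := by
  have h0 : ζ ≠ 0 := hζ.ne_zero (by decide)
  refine (hζ.zpow_eq_one_iff_dvd _).1 ?_
  rw [zpow_sub₀ h0, h, div_self (zpow_ne_zero _ h0)]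

section Core

variable {P : Type} [Group P] [Finite P] (h3 : 3 ≠ p) (hP : IsPGroup 3 P) {ζ : KK p} (hζ : IsPrimitiveRoot ζ 3)
  {R : Subgroup P} (hR : R.Normal) (hR0 : R ≠ ⊥) (hc : ∀ x ∈ R, ∀ y ∈ R, x * y = y * x) (hpow : ∀ x ∈ R, x ^ 3 = 1)
include h3 hP hζ hR hR0 hc hpow

theorem core0 {j : P →* YY chevE6 p} (hj : Function.Injective j) {f : P →* W6} (hf : ∀ x, RP hp p (f x) (j x))
    {u : Fin 3 → W6} (hu : Rot hp cs6 u) (hr : ∀ k, u k ∈ f.range)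
    (hco : ∀ a, IsRoot cs6 hp.isCartan a → ∃ t : P, j t ∈ TT chevE6 (KK p) ∧
      ∀ r, cX hp (j t) r = ζ ^ cpr cs6 hp.isCartan r a) :
    ∃ x ∈ R, x ≠ 1 ∧ ∀ y ∈ R, Tp p (j y) (j x) := by
  have : Fact (Nat.Prime 3) := ⟨Nat.prime_three⟩
  obtain ⟨x, hx, hx1, hxc⟩ := H777.PGrp.inf_center_ne_bot hP hR0 hR
  have hcj : ∀ y, j y * j x = j x * j y := fun y => by rw [← map_mul, ← map_mul, hxc]
  have h1 : f x = 1 := eq_one_of_mod hp cs6 fun r a ha => by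
    obtain ⟨t, ht, e⟩ := hco a ha
    have h2 := (hf x).cX_of_comm ht (hcj t).symm r
    rw [e, e] at h2
    exact dvd_of_zpow hζ h2
  have hxT : j x ∈ TT chevE6 (KK p) := (h1 ▸ hf x).mem_T
  have hx3 : j x ^ 3 = 1 := by rw [← map_pow, hpow x hx, map_one]
  have hfix : ∀ y r, cX hp (j x) (rep cs6 hp.isCartan (f y) r) = cX hp (j x) r := fun y =>
    (hf y).cX_of_comm hxT (hcj y)
  obtain ⟨t1, t2⟩ := hu.triv (isMC_cX hp hxT) fun k r => by
    obtain ⟨y, hy⟩ := hr k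
    rw [← hy, hfix]
  have hη : IsPrimitiveRoot (cX hp (j x) (sr 3)) 3 := by
    rw [← orderOf_eq_prime (p := 3) (x := cX hp (j x) (sr 3)) (by rw [← cX_pow hp hxT, hx3, cX_one]) fun e => hx1 (hj ?_)]
    · exact IsPrimitiveRoot.orderOf _
    · rw [map_one]
      exact cX_inj hp hxT (one_mem _) fun i => by rw [t2, e, one_zpow, cX_one]
  refine ⟨x, hx, hx1, fun y hy => ?_⟩
  obtain ⟨a, b, c, e⟩ := hu.eq_prod (w := f y) (by rw [← map_pow, hpow y hy, map_one]) (fun r hr => by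
      have h2 := hfix y r
      rw [t2, t2 r] at h2
      have h4 := dvd_add (dvd_of_zpow hη h2) hr
      rwa [sub_add_cancel] at h4) fun a ha => by
    obtain ⟨t, ht, e⟩ := hco a ha
    have s1 : y * t * y⁻¹ * t⁻¹ ∈ R := by
      have s2 := mul_mem hy (hR.conj_mem _ (inv_mem hy) t)
      rwa [← mul_assoc, ← mul_assoc] at s2
    have s2 : j y * j t * (j y)⁻¹ = j (y * t * y⁻¹ * t⁻¹) * j t := by
      rw [← map_mul j (y * t * y⁻¹ * t⁻¹) t, inv_mul_cancel_right, map_mul, map_mul, map_inv]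
    have s3 : j (y * t * y⁻¹ * t⁻¹) ∈ TT chevE6 (KK p) := by
      rw [map_mul, map_mul, map_mul, map_inv, map_inv]
      exact mul_mem ((hf y).conj_mem ht) (inv_mem ht)
    have s4 := (hf y).cX_of_comm s3 (by rw [← map_mul, ← map_mul, hc y hy _ s1]) a
    have s5 := (hf y).cX ht a
    have s6 := (hf y).cX ht (rep cs6 hp.isCartan (f y)⁻¹ a)
    rw [s2, cX_mul hp s3 ht, s4, e, e, cpr_self _ _ ha] at s5
    rw [rep_apply_inv, s2, cX_mul hp s3 ht, e, e, cpr_self _ _ ha, ← cpr_rep _ _ (f y) _ ha, rep_apply_inv,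
      cpr_comm hp cs6 ha (ha.act _)] at s6
    have h0 : ζ ≠ 0 := hζ.ne_zero (by decide)
    have s7 : ζ ^ (cpr cs6 hp.isCartan (rep cs6 hp.isCartan (f y) a) a + cpr cs6 hp.isCartan (rep cs6 hp.isCartan (f y) a) a) =
        ζ ^ ((2 : ℤ) + 2) := by
      rw [zpow_add₀ h0, zpow_add₀ h0]
      nth_rewrite 1 [← s6]
      nth_rewrite 2 [← s5]
      ring
    have s8 := dvd_of_zpow hζ s7
    omega
  let H : Subgroup W6 :=
    { carrier := {v | ∃ k ∈ DZ hp p {j x}, RP hp p v k}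
      one_mem' := ⟨1, one_mem _, RP.of_mem (one_mem _)⟩
      mul_mem' := by
        rintro _ _ ⟨k, a1, a2⟩ ⟨k', a3, a4⟩
        exact ⟨_, mul_mem a1 a3, a2.mul a4⟩
      inv_mem' := by
        rintro _ ⟨k, a1, a2⟩
        exact ⟨_, inv_mem a1, a2.inv⟩ }
  have hH : ∀ k, u k ∈ H := fun k => by
    obtain ⟨s, t, a1, a2, a3⟩ := hu.ex k
    rw [a3]
    exact mul_mem (rf_DZ hxT ((root_iff hp cs6 _).2 (ra_mem k)) a1 (t1 k).1)
      (rf_DZ hxT ((root_iff hp cs6 _).2 (rb_mem k)) a2 (t1 k).2)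
  obtain ⟨k, a1, a2⟩ : f y ∈ H := by
    rw [e]
    exact mul_mem (mul_mem (pow_mem (hH 0) _) (pow_mem (hH 1) _)) (pow_mem (hH 2) _)
  have a3 := a2.inv.mul (hf y)
  rw [inv_mul_cancel] at a3
  have a4 := mul_mem a1 (T_le_DZ a3.mem_T)
  rw [mul_inv_cancel_left] at a4
  exact (tp_of_mem_DZ Nat.prime_three h3 hxT ⟨1, by rwa [pow_one]⟩ a4
    ⟨1, by rw [pow_one, ← map_pow, hpow y hy, map_one]⟩).symm

/-- **The Sylow subgroup in the normaliser of the torus.** -/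
theorem core {j : P →* YY chevE6 p} (hj : Function.Injective j) {f : P →* W6} (hf : ∀ x, RP hp p (f x) (j x))
    (hi : ¬ 3 ∣ f.range.index)
    (hco : ∀ a, IsRoot cs6 hp.isCartan a → ∃ t : P, j t ∈ TT chevE6 (KK p) ∧
      ∀ r, cX hp (j t) r = ζ ^ cpr cs6 hp.isCartan r a) :
    ∃ x ∈ R, x ≠ 1 ∧ ∀ y ∈ R, Tp p (j y) (j x) := by
  have : Fact (Nat.Prime 3) := ⟨Nat.prime_three⟩
  obtain ⟨u, hu⟩ := exists_rot hp cs6
  have hA : IsPGroup 3 (Subgroup.closure (Set.range u)) := isPGroup_of_comm (by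
    rintro _ ⟨a, rfl⟩ _ ⟨b, rfl⟩
    exact hu.comm a b) (by
    rintro _ ⟨a, rfl⟩
    exact ⟨1, by rw [pow_one, hu.cube]⟩)
  obtain ⟨Q, hQ⟩ := hA.exists_le_sylow
  have hS : IsPGroup 3 f.range := hP.of_surjective _ f.rangeRestrict_surjective
  obtain ⟨g, hg⟩ := MulAction.exists_smul_eq W6 Q (hS.toSylow hi)
  obtain ⟨n, hn⟩ := exists_RP hp p g
  obtain ⟨x, a1, a2, a3⟩ := core0 (hp := hp) h3 hP hζ hR hR0 hc hpow (j := (MulAut.conj n⁻¹).toMonoidHom.comp j)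
    ((MulAut.conj n⁻¹).injective.comp hj) (f := (MulAut.conj g⁻¹).toMonoidHom.comp f)
    (fun x => (hn.inv.mul (hf x)).mul hn.inv.inv) hu (fun k => by
      have b1 : g * u k * g⁻¹ ∈ ((g • Q : Sylow 3 W6) : Subgroup W6) :=
        ⟨u k, hQ (Subgroup.subset_closure ⟨k, rfl⟩), rfl⟩
      rw [hg] at b1
      obtain ⟨y, hy⟩ := b1
      refine ⟨y, ?_⟩
      show g⁻¹ * f y * g⁻¹⁻¹ = u k
      rw [hy]
      group) fun a ha => by
    obtain ⟨t, ht, e⟩ := hco _ (ha.act g)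
    refine ⟨t, hn.inv.conj_mem ht, fun r => ?_⟩
    have b1 := hn.inv.cX ht (rep cs6 hp.isCartan g r)
    rw [rep_inv_apply, e, cpr_rep _ _ g _ ha] at b1
    exact b1
  exact ⟨x, a1, a2, fun y hy => (a3 y hy).of_conj⟩

end Core

/-! ### the component group -/

theorem dl_eq : dl = al chevE6 6 (some 0) - al chevE6 6 (some 2) + al chevE6 6 (some 4) - al chevE6 6 (some 5) := by
  decide +kernel

/-- **The cocycle detects the component group.** -/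
theorem rho_ne_one (h3 : 3 ≠ p) {t : YY chevE6 p} (ht : t ∈ TT chevE6 (KK p)) (ht3 : t ^ 3 = 1) {y : W6}
    (hy : y ∈ PP cs6 hp.isCartan (ch hp) t) (hy1 : y ≠ 1) : cX hp t (rho hp cs6 y) ≠ 1 := by
  obtain ⟨ζ, hζ⟩ := exists_prim (p := p) Nat.prime_three h3
  obtain ⟨w, v, c, c0, π, K, h1, hv, h2, h4, h5⟩ := pp_diag (by norm_num) hζ ht ht3 hy hy1
  have e : y = w * v * w⁻¹ := by rw [hv]; group
  rw [e, rho_conj hp cs6 (isMC_cX hp ht) w (fun x => by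
    rw [hv, rep_mul_apply, rep_mul_apply, rep_apply_inv, cX_PP hp ht hy]), h1, Ne, hζ.zpow_eq_one_iff_dvd]
  have h6 : ∀ i, bb c (al chevE6 6 i) = ct c c0 i - if i = none then 3 else 0 := by
    rintro (_ | i)
    · show bb c (-hr chevE6 6) = c0 - _
      rw [map_neg, bb_hr K, if_pos rfl]
      push_cast
      ring
    · show psi _ (sr i) = c i - _
      rw [psi_sr, if_neg (by simp), sub_zero]
  have h7 := congrArg (bb c) (rho_spec hp cs6 v)
  rw [map_add, map_zsmul, dl_eq] at h7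
  simp only [map_add, map_sub, h2, h6, h4, reduceCtorEq, if_false, smul_eq_mul] at h7
  have h8 : ∀ i, π i = none → i = none ∨ i = some 0 ∨ i = some 5 := fun i h => mk6 i (by
    rw [← mk_perm hp h2 i, h]
    rfl)
  have n2 : π (some 2) ≠ none := fun h => absurd (h8 _ h) (by decide)
  have n4 : π (some 4) ≠ none := fun h => absurd (h8 _ h) (by decide)
  rw [if_neg n2, if_neg n4] at h7
  obtain ⟨i, hi⟩ := π.surjective none
  rcases h8 i hi with rfl | rfl | rfl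
  · exact absurd hi h5
  · rw [if_pos hi, if_neg fun h => absurd (π.injective (h.trans hi.symm)) (by decide)] at h7
    push_cast
    omega
  · rw [if_pos hi, if_neg fun h => absurd (π.injective (h.trans hi.symm)) (by decide)] at h7
    push_cast
    omega

/-- **The Frobenius map inverts the component group.** -/
theorem tp_of_inv (h3 : 3 ≠ p) {σ : MulAut (YY chevE6 p)} {e : ℕ} {g : (Fin 6 → ℤ) ≃+ (Fin 6 → ℤ)} (hσ : IsFrob p e σ)
    (Φ : Fr cs6 hp.isCartan (TT chevE6 (KK p)) (XX chevE6 6 (KK p)) σ g) {v : W6} {ε : ℤ} (hε : ε * ε = 1)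
    (hg : ∀ a, g a = ε • rep cs6 hp.isCartan v a) (hq : (3 : ℤ) ∣ ε * p ^ e + 1) {x y : YY chevE6 p}
    (hx : x ∈ TT chevE6 (KK p)) (hσx : σ x = x) (hσy : σ y = y) (hx3 : x ^ 3 = 1) (hy3 : y ^ 3 = 1)
    (hc : y * x = x * y) : Tp p x y := by
  have hZ : ({x} : Set (YY chevE6 p)) ⊆ TT chevE6 (KK p) := Set.singleton_subset_iff.2 hx
  have hφ := isMC_cX hp hx
  have hφ3 : ∀ a, cX hp x a ^ 3 = 1 := fun a => by rw [← cX_pow hp hx, hx3, cX_one]
  have hs : ∀ a, cX hp x (g a) = cX hp x a ^ p ^ e := fun a => by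
    have h1 := cX_sigma hp cs6 hσ Φ hx a
    rwa [hσx] at h1
  have hinv : ∀ a, cX hp x (rep cs6 hp.isCartan v a) = (cX hp x a)⁻¹ := fun a => by
    obtain ⟨c, hc⟩ := hq
    have h1 : cX hp x (g a) ^ ε = (cX hp x a ^ p ^ e) ^ ε := by rw [hs]
    rw [hg, hφ.zsmul, ← zpow_mul, hε, zpow_one, ← zpow_natCast, ← zpow_mul, mul_comm, Nat.cast_pow,
      show ε * (p : ℤ) ^ e = (3 : ℕ) * c + -1 by push_cast; omega, zpow_add₀ (hφ.ne_zero a), zpow_mul, zpow_natCast, hφ3,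
      one_zpow, one_mul, zpow_neg_one] at h1
    exact h1
  obtain ⟨m, hm, w, hw, k, hk, hkc, rfl⟩ := form hp (Set.finite_singleton x) hZ (c := y) fun s hs => by rw [hs, hc]
  by_cases hw1 : w = 1
  · rw [hw1] at hk
    exact tp_of_mem_DZ Nat.prime_three h3 hx ⟨1, hx3⟩ (mul_mem (Mz_le_DZ hm) (T_le_DZ hk.mem_T)) ⟨1, hy3⟩
  refine absurd ?_ (rho_ne_one h3 hx hx3 (mem_PP_of_PPZ hw) hw1)
  obtain ⟨w', hw'⟩ := SB.Exc.Tor.rp_map Φ.tor hk
  have h1 : w' = v * w * v⁻¹ := rep_injective cs6 hp.isCartan (LinearMap.ext fun a => by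
    have h2 := SB.Exc.Tor.comm_of_rp Φ hk hw' (rep cs6 hp.isCartan v⁻¹ a)
    rw [hg, hg, rep_apply_inv, map_zsmul] at h2
    rw [rep_mul_apply, rep_mul_apply]
    exact (smul_right_injective _ (left_ne_zero_of_mul_eq_one hε) h2).symm)
  have h2 : Mz hp p {x} ≤ (Mz hp p {x}).comap σ.toMonoidHom := Mz_le fun a ha u hu =>
    X_le_Mz ((mem_Ps hZ).2 ⟨(Φ.root a).2 ha.1, fun s hs' => by
      rw [hs', hs, ((mem_Ps hZ).1 ha).2 x rfl, one_pow]⟩) ((Φ.map a ha.1 u).2 hu)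
  have h4 : σ k * k⁻¹ = (σ m)⁻¹ * m := by
    rw [map_mul] at hσy
    calc σ k * k⁻¹ = (σ m)⁻¹ * (σ m * σ k) * k⁻¹ := by group
      _ = _ := by rw [hσy]; group
  obtain ⟨h5, h6⟩ := mem_Kf_of_DZ hx (hw'.mul hk.inv) (by
    rw [h4]
    exact Mz_le_DZ (mul_mem (inv_mem (h2 hm)) hm))
  have h7 := congrArg (cX hp x) (rho_mul hp cs6 (w' * w⁻¹) w)
  rw [inv_mul_cancel_right, hφ.add, h5, h6, one_mul, h1, rho_conj hp cs6 hφ v (fun a => by
    rw [hinv, hinv, hk.cX_of_comm hx (hkc x rfl)]), hinv] at h7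
  have h8 := hφ3 (rho hp cs6 w)
  rw [pow_three]  at h8
  nth_rewrite 2 [← h7] at h8
  rwa [inv_mul_cancel₀ (hφ.ne_zero _), mul_one] at h8

end Cfsg.Agent.TH.Ab.ZE
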